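import Cfsg.Agent.Lib.PermComp.Spor.J3.Thm2

/-!
# The centre of `threeJ3` lies in the commutator subgroup

With `A = A_1`, `D = D_1` one has `A D = ω D A`, so the scalar `ω` is a commutator.
-/

set_option autoImplicit false
set_option linter.unusedVariables false
set_option linter.style.longLine false

namespace Cfsg.Agent.Lib.Schur.J3.Comm

open Cfsg.Spor Subgroup
open scoped MatrixGroups commutatorElement

variable {F : Type*} [Field F] {ω : F}

section

variable (hω : ω ^ 2 + ω + 1 = 0)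
include hω

theorem omega_cube : ω ^ 3 = 1 := by
  linear_combination (ω - 1) * hω

theorem omega_ne_zero : ω ≠ 0 := by
  rintro rfl
  simp at hω

theorem omegaPow_add (n m : ZMod 3) : omegaPow F ω (n + m) = omegaPow F ω n * omegaPow F ω m := by
  have h3 := omega_cube hω
  have h4 : ω ^ 4 = ω := by
    calc ω ^ 4 = ω ^ 3 * ω := by ring
      _ = ω := by rw [h3, one_mul]
  unfold omegaPow
  rw [← pow_add]
  have key : ∀ n m : ZMod 3, (n + m).val = n.val + m.val ∨ (n + m).val + 3 = n.val + m.val := by decide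
  rcases key n m with h | h
  · rw [h]
  · rw [← h, pow_add, h3, mul_one]

end

/-- The inverse of `D_1`. -/
def Dinv (F : Type*) [Field F] (ω : F) : Matrix F9 F9 F :=
  Matrix.of fun u z => if u = z - F9.one then (j3Lam F ω F9.one u)⁻¹ else 0

theorem lam_ne (hω : ω ^ 2 + ω + 1 = 0) (z : F9) : j3Lam F ω F9.one z ≠ 0 := by
  have h0 := omega_ne_zero hω
  unfold j3Lam
  split_ifs
  · exact one_ne_zero
  · exact h0
  · exact pow_ne_zero _ h0
  · exact one_ne_zero

theorem D_mul_Dinv (hω : ω ^ 2 + ω + 1 = 0) : j3D F ω F9.one * Dinv F ω = 1 := by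
  classical
  ext w z
  rw [Matrix.mul_apply, Finset.sum_eq_single (z - F9.one)]
  · have h1 : j3D F ω F9.one w (z - F9.one) =
        if w = z - F9.one + F9.one then j3Lam F ω F9.one (z - F9.one) else 0 := rfl
    have h2 : Dinv F ω (z - F9.one) z = (j3Lam F ω F9.one (z - F9.one))⁻¹ := by
      show (if z - F9.one = z - F9.one then _ else _) = _
      rw [if_pos rfl]
    rw [h1, h2, sub_add_cancel, Matrix.one_apply]
    by_cases h : w = z
    · rw [if_pos h, if_pos h, mul_inv_cancel₀ (lam_ne hω _)]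
    · rw [if_neg h, if_neg h, zero_mul]
  · intro u _ hu
    have h2 : Dinv F ω u z = 0 := by
      show (if u = z - F9.one then _ else _) = _
      rw [if_neg hu]
    rw [h2, mul_zero]
  · intro h
    exact absurd (Finset.mem_univ _) h

theorem A_mul_D (hω : ω ^ 2 + ω + 1 = 0) :
    j3A F ω F9.one * j3D F ω F9.one = ω • (j3D F ω F9.one * j3A F ω F9.one) := by
  classical
  ext w z
  unfold j3A
  rw [Matrix.diagonal_mul, Matrix.smul_apply, Matrix.mul_diagonal]
  have h1 : j3D F ω F9.one w z = if w = z + F9.one then j3Lam F ω F9.one z else 0 := rfl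
  rw [h1]
  by_cases h : w = z + F9.one
  · rw [if_pos h, h]
    have h2 : (F9.one.1 * (z + F9.one).1 + F9.one.2 * (z + F9.one).2) =
        (F9.one.1 * z.1 + F9.one.2 * z.2) + 1 := by
      have e1 : F9.one = ((1 : ZMod 3), (0 : ZMod 3)) := rfl
      rw [e1]
      simp
    rw [h2, omegaPow_add hω]
    have h3 : omegaPow F ω 1 = ω := by
      unfold omegaPow
      have : (1 : ZMod 3).val = 1 := rfl
      rw [this, pow_one]
    rw [h3, smul_eq_mul]
    ring
  · rw [if_neg h]
    simp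

theorem omegaPow_cube (hω : ω ^ 2 + ω + 1 = 0) (n : ZMod 3) : omegaPow F ω n ^ 3 = 1 := by
  unfold omegaPow
  rw [← pow_mul, mul_comm, pow_mul, omega_cube hω, one_pow]

theorem A_cube (hω : ω ^ 2 + ω + 1 = 0) : j3A F ω F9.one * (j3A F ω F9.one * j3A F ω F9.one) = 1 := by
  classical
  unfold j3A
  rw [Matrix.diagonal_mul_diagonal, Matrix.diagonal_mul_diagonal, ← Matrix.diagonal_one]
  congr 1
  funext z
  have := omegaPow_cube hω (F9.one.1 * z.1 + F9.one.2 * z.2)
  rw [← this]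
  ring

/-- The unit of `A_1`. -/
noncomputable def aU (hω : ω ^ 2 + ω + 1 = 0) : GL F9 F where
  val := j3A F ω F9.one
  inv := j3A F ω F9.one * j3A F ω F9.one
  val_inv := A_cube hω
  inv_val := mul_eq_one_comm.1 (A_cube hω)

/-- The unit of `D_1`. -/
noncomputable def dU (hω : ω ^ 2 + ω + 1 = 0) : GL F9 F where
  val := j3D F ω F9.one
  inv := Dinv F ω
  val_inv := D_mul_Dinv hω
  inv_val := mul_eq_one_comm.1 (D_mul_Dinv hω)

theorem aU_mem (hω : ω ^ 2 + ω + 1 = 0) : aU hω ∈ threeJ3 F ω :=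
  subset_closure (Or.inl (Or.inl (Or.inl (Or.inl ⟨F9.one, rfl⟩))))

theorem dU_mem (hω : ω ^ 2 + ω + 1 = 0) : dU hω ∈ threeJ3 F ω :=
  subset_closure (Or.inl (Or.inl (Or.inr ⟨F9.one, rfl⟩)))

/-- The commutator. -/
noncomputable def sS (hω : ω ^ 2 + ω + 1 = 0) : threeJ3 F ω :=
  ⁅(⟨aU hω, aU_mem hω⟩ : threeJ3 F ω), (⟨dU hω, dU_mem hω⟩ : threeJ3 F ω)⁆

theorem sS_val (hω : ω ^ 2 + ω + 1 = 0) : (((sS hω : threeJ3 F ω) : GL F9 F) : Matrix F9 F9 F) = ω • 1 := by
  have h1 : ((sS hω : threeJ3 F ω) : GL F9 F) = aU hω * dU hω * (aU hω)⁻¹ * (dU hω)⁻¹ := rfl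
  rw [h1]
  have h2 : (((aU hω * dU hω * (aU hω)⁻¹ * (dU hω)⁻¹ : GL F9 F)) : Matrix F9 F9 F) =
      j3A F ω F9.one * j3D F ω F9.one * ((aU hω)⁻¹ : GL F9 F).val * ((dU hω)⁻¹ : GL F9 F).val := rfl
  have h3 : j3A F ω F9.one * ((aU hω)⁻¹ : GL F9 F).val = 1 := (aU hω).mul_inv
  have h4 : j3D F ω F9.one * ((dU hω)⁻¹ : GL F9 F).val = 1 := (dU hω).mul_inv
  rw [h2, A_mul_D hω, Matrix.smul_mul, Matrix.smul_mul, Matrix.mul_assoc (j3D F ω F9.one), h3, Matrix.mul_one, h4]

theorem sS_center (hω : ω ^ 2 + ω + 1 = 0) : sS hω ∈ center (threeJ3 F ω) := by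
  rw [mem_center_iff]
  intro g
  apply Subtype.ext
  apply Units.ext
  show (g : GL F9 F).val * ((sS hω : threeJ3 F ω) : GL F9 F).val = ((sS hω : threeJ3 F ω) : GL F9 F).val * (g : GL F9 F).val
  rw [sS_val, Matrix.mul_smul, Matrix.smul_mul, Matrix.mul_one, Matrix.one_mul]

theorem sS_ne (h2 : (2 : F) = 0) (hω : ω ^ 2 + ω + 1 = 0) : sS hω ≠ 1 := by
  intro h
  have h1 := sS_val hω
  rw [h] at h1
  have h3 : ((1 : Matrix F9 F9 F)) = ω • 1 := h1
  have h4 := congrFun (congrFun h3 0) 0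
  simp only [Matrix.one_apply_eq, Matrix.smul_apply, smul_eq_mul, mul_one] at h4
  rw [← h4] at hω
  have : (1 : F) = 0 := by linear_combination hω - h2
  exact one_ne_zero this

/-- **The centre is in the commutator subgroup.** -/
theorem center_le_commutator (h2 : (2 : F) = 0) (hω : ω ^ 2 + ω + 1 = 0)
    (hc : Nat.card (center (threeJ3 F ω)) = 3) : center (threeJ3 F ω) ≤ commutator (threeJ3 F ω) := by
  have hle : zpowers (sS hω) ≤ center (threeJ3 F ω) := by
    rw [zpowers_le]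
    exact sS_center hω
  have hf : Finite (center (threeJ3 F ω)) := Nat.finite_of_card_ne_zero (by rw [hc]; norm_num)
  have hd : Nat.card (zpowers (sS hω)) ∣ Nat.card (center (threeJ3 F ω)) := Subgroup.card_dvd_of_le hle
  rw [hc] at hd
  have heq : zpowers (sS hω) = center (threeJ3 F ω) := by
    rcases (Nat.dvd_prime (by norm_num)).1 hd with h1 | h1
    · exfalso
      have h3 : zpowers (sS hω) = ⊥ := (Subgroup.card_eq_one).1 h1
      rw [zpowers_eq_bot] at h3
      exact sS_ne h2 hω h3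
    · exact Subgroup.eq_of_le_of_card_ge hle (by rw [h1, hc])
  rw [← heq, zpowers_le]
  exact Subgroup.commutator_mem_commutator (mem_top (⟨aU hω, aU_mem hω⟩ : threeJ3 F ω)) (mem_top (⟨dU hω, dU_mem hω⟩ : threeJ3 F ω))

end Cfsg.Agent.Lib.Schur.J3.Comm
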